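import Cfsg.Agent.Lib.Helper99.X3.Defs
import Cfsg.Agent.Lib.Helper22.X3.N0

set_option autoImplicit false
open scoped MatrixGroups

namespace Cfsg.Agent.Lib.Helper99.X3

variable {F : Type*} [Field F]

local notation "M3" => Matrix (Fin 3) (Fin 3) F

theorem N2_sandwich (P : GL (Fin 3) F) (X Y : M3) :
    ((P : M3) * X * ((P⁻¹ : GL (Fin 3) F) : M3)) * ((P : M3) * Y * ((P⁻¹ : GL (Fin 3) F) : M3))
      = (P : M3) * (X * Y) * ((P⁻¹ : GL (Fin 3) F) : M3) := by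
  calc ((P : M3) * X * ((P⁻¹ : GL (Fin 3) F) : M3)) * ((P : M3) * Y * ((P⁻¹ : GL (Fin 3) F) : M3))
      = (P : M3) * X * (((P⁻¹ : GL (Fin 3) F) : M3) * (P : M3)) * Y * ((P⁻¹ : GL (Fin 3) F) : M3) := by
        simp only [Matrix.mul_assoc]
    _ = (P : M3) * (X * Y) * ((P⁻¹ : GL (Fin 3) F) : M3) := by
        rw [← Units.val_mul, inv_mul_cancel, Units.val_one, mul_one]
        simp only [Matrix.mul_assoc]

theorem N2_conj (n a w P : GL (Fin 3) F) (c : F) (X Y W : M3)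
    (hn : (n : M3) = c • ((P : M3) * X * ((P⁻¹ : GL (Fin 3) F) : M3)))
    (ha : (a : M3) = (P : M3) * Y * ((P⁻¹ : GL (Fin 3) F) : M3))
    (hw : (w : M3) = (P : M3) * W * ((P⁻¹ : GL (Fin 3) F) : M3)) (h : X * Y = W * X) :
    n * a * n⁻¹ = w := by
  have h1 : n * a = w * n := by
    apply Units.ext
    rw [Units.val_mul, Units.val_mul, hn, ha, hw, Matrix.smul_mul, Matrix.mul_smul, N2_sandwich,
      N2_sandwich, h]
  rw [h1, mul_inv_cancel_right]

theorem N2_pow (a P : GL (Fin 3) F) (Y : M3)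
    (ha : (a : M3) = (P : M3) * Y * ((P⁻¹ : GL (Fin 3) F) : M3)) (k : ℕ) :
    ((a ^ k : GL (Fin 3) F) : M3) = (P : M3) * Y ^ k * ((P⁻¹ : GL (Fin 3) F) : M3) := by
  induction k with
  | zero =>
    rw [pow_zero, pow_zero, Units.val_one, mul_one, ← Units.val_mul, mul_inv_cancel, Units.val_one]
  | succ k ih =>
    rw [pow_succ, Units.val_mul, ih, ha, N2_sandwich, ← pow_succ]

theorem N2 [Finite F] {R : Subgroup (GL (Fin 3) F)} {ζ : F} {P a b : GL (Fin 3) F} (h : Std R ζ P a b)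
    (n : GL (Fin 3) F) (c : F)
    (hn : (n : M3) = c • ((P : M3) * T0 * ((P⁻¹ : GL (Fin 3) F) : M3))) :
    n ∈ Cfsg.Geo.subgroupNormalizer R := by
  have hζ4 : ζ ^ 4 = ζ := by rw [pow_succ, h.cube, one_mul]
  have hTA : (T0 : M3) * A0 ζ = A0 ζ ^ 2 * T0 := by
    ext i j
    fin_cases i <;> fin_cases j <;>
      simp [T0, A0, pow_two, Matrix.mul_apply, Matrix.diagonal_apply]
    linear_combination -hζ4
  have hTB : (T0 : M3) * B0 = B0 ^ 2 * T0 := by
    ext i j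
    fin_cases i <;> fin_cases j <;>
      simp [T0, B0, pow_two, Matrix.mul_apply, Fin.sum_univ_three]
  rw [h.gen]
  unfold Cfsg.Geo.subgroupNormalizer
  have hamem : a ∈ Subgroup.closure ({a, b} : Set (GL (Fin 3) F)) :=
    Subgroup.subset_closure (Set.mem_insert _ _)
  have hbmem : b ∈ Subgroup.closure ({a, b} : Set (GL (Fin 3) F)) :=
    Subgroup.subset_closure (Set.mem_insert_of_mem _ rfl)
  apply N0
  · rw [N2_conj n a (a ^ 2) P c T0 (A0 ζ) (A0 ζ ^ 2) hn h.ha (N2_pow a P _ h.ha 2) hTA]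
    exact pow_mem hamem 2
  · rw [N2_conj n b (b ^ 2) P c T0 B0 (B0 ^ 2) hn h.hb (N2_pow b P _ h.hb 2) hTB]
    exact pow_mem hbmem 2

end Cfsg.Agent.Lib.Helper99.X3
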