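import Cfsg.Agent.Lib.Helper99.X3.Defs
import Cfsg.Agent.Lib.Helper22.X3.N0
import Cfsg.Agent.Lib.Helper89.X3.N1a
import Cfsg.Agent.Lib.Helper74.X3.ZS
import Cfsg.Agent.Lib.Helper84.X3.N2

set_option autoImplicit false
open scoped MatrixGroups

namespace Cfsg.Agent.Lib.Helper99.X3

variable {F : Type*} [Field F]

local notation "M3" => Matrix (Fin 3) (Fin 3) F

theorem N1 [Finite F] {R : Subgroup (GL (Fin 3) F)} {ζ : F} {P a b : GL (Fin 3) F} (h : Std R ζ P a b)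
    (n : GL (Fin 3) F) (c : F) (l : Fin 3 → F) (hl : ∀ i, l i ^ 3 = 1)
    (hn : (n : M3) = c • ((P : M3) * Matrix.diagonal l * ((P⁻¹ : GL (Fin 3) F) : M3))) :
    n ∈ Cfsg.Geo.subgroupNormalizer R := by
  obtain ⟨z, hzR, -, hz⟩ := ZS h
  obtain ⟨k, e, hke⟩ := N1a ζ h.ne h.cube l hl
  have hDA : (Matrix.diagonal l : M3) * A0 ζ = A0 ζ * Matrix.diagonal l := by
    unfold A0
    rw [Matrix.diagonal_mul_diagonal, Matrix.diagonal_mul_diagonal]
    congr 1
    funext i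
    exact mul_comm _ _
  have hw : ((z ^ k * a ^ e * b : GL (Fin 3) F) : M3)
      = (P : M3) * (ζ ^ k • (A0 ζ ^ e * B0)) * ((P⁻¹ : GL (Fin 3) F) : M3) := by
    rw [Units.val_mul, Units.val_mul, Units.val_pow_eq_pow_val, hz, smul_pow, one_pow,
      N2_pow a P _ h.ha e, h.hb, Matrix.smul_mul, one_mul, Matrix.smul_mul, N2_sandwich,
      Matrix.mul_smul, Matrix.smul_mul]
  rw [h.gen] at hzR ⊢
  unfold Cfsg.Geo.subgroupNormalizer
  have hamem : a ∈ Subgroup.closure ({a, b} : Set (GL (Fin 3) F)) :=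
    Subgroup.subset_closure (Set.mem_insert _ _)
  have hbmem : b ∈ Subgroup.closure ({a, b} : Set (GL (Fin 3) F)) :=
    Subgroup.subset_closure (Set.mem_insert_of_mem _ rfl)
  apply N0
  · rw [N2_conj n a a P c (Matrix.diagonal l) (A0 ζ) (A0 ζ) hn h.ha h.ha hDA]
    exact hamem
  · rw [N2_conj n b (z ^ k * a ^ e * b) P c (Matrix.diagonal l) B0 (ζ ^ k • (A0 ζ ^ e * B0)) hn h.hb
      hw (by rw [hke, Matrix.smul_mul])]
    exact mul_mem (mul_mem (pow_mem hzR k) (pow_mem hamem e)) hbmem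

end Cfsg.Agent.Lib.Helper99.X3
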